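-- Project SPTEN (S5980): interface file (helper8).  Package statements only; no proofs here.
import Mathlib
import Cfsg.Prelude.Def_ClassicalGeometry
import Cfsg.Prelude.Def_GeometricClasses
import Cfsg.Agent.Lib.Helper4.FXSP.Defs
import Cfsg.Agent.Lib.Helper99.GUSP.Defs

/-!
# S5980 (team project SPTEN): package interface

`Sp_{2d}(q)`, `q` odd, and the tensor product subgroup `T` of type `Sp_a(q) ⊗ O_b(q)` (`a` even,
`b ≥ 3`, `2 d = a b`): every non-scalar `x ∈ Sp` with `x ^ r` scalar is `Sp`-conjugate into `T`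
iff `r = 2 ∧ a = 2`.

Every `Pkg...` below is a `Prop`; a package is delivered as a theorem whose type is that `Prop`
(or a function from the listed hypotheses to it).
-/

set_option autoImplicit false

namespace Cfsg.Agent.Lib.Helper8.SPTEN

open scoped Kronecker MatrixGroups Matrix

universe u

/-- The index type of the symplectic space of dimension `2 d`. -/
abbrev SI (d : ℕ) : Type := Fin d ⊕ Fin d

/-- the `2d × 2d` matrices -/
abbrev Md (d : ℕ) (F : Type u) := Matrix (SI d) (SI d) F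

/-- the index type of the tensor product -/
abbrev TI (a b : ℕ) : Type := Fin a × Fin b

/-- `c(i)`: `i` if `i` is even, `2 i` if `i` is odd -/
def cOf (i : ℕ) : ℕ := if Even i then i else 2 * i

/-- The tensor structure in Gram form: `sympForm (P (x ∘ e)) (P (y ∘ e)) = c * xᵀ G y`. -/
def TS {F : Type u} [Field F] (d a b : ℕ) (e : SI d ≃ TI a b) (P : GL (SI d) F)
    (G : Matrix (TI a b) (TI a b) F) : Prop :=
  ∃ c : F, c ≠ 0 ∧ ∀ x y : TI a b → F,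
    Cfsg.sympForm d F ((P : Md d F) *ᵥ (x ∘ e)) ((P : Md d F) *ᵥ (y ∘ e)) =
      c * Cfsg.Geo.formOfGram id G x y

/-- The invariants shared by `x` and a Kronecker product `A ⊗ B` similar to it that preserves the
Gram matrix `G`. -/
def Inv {F : Type u} [Field F] (d a b : ℕ) (G : Matrix (TI a b) (TI a b) F) (x : Md d F)
    (A : Matrix (Fin a) (Fin a) F) (B : Matrix (Fin b) (Fin b) F) : Prop :=
  (∀ μ : F, (x - μ • (1 : Md d F)).rank =
    (A ⊗ₖ B - μ • (1 : Matrix (TI a b) (TI a b) F)).rank) ∧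
  (∀ (k : ℕ) (z : F), x ^ k = z • (1 : Md d F) ↔
    (A ⊗ₖ B) ^ k = z • (1 : Matrix (TI a b) (TI a b) F)) ∧
  (A ⊗ₖ B)ᵀ * G * (A ⊗ₖ B) = G

/-- A non-scalar `x ∈ Sp` with `x ^ r = 1` that is similar to no Kronecker product preserving
`G`. -/
def Bad {F : Type u} [Field F] (d a b r : ℕ) (G : Matrix (TI a b) (TI a b) F) : Prop :=
  ∃ x : GL (SI d) F, x ∈ Cfsg.spGL d F ∧ (x : Md d F) ^ r = 1 ∧
    (∀ z : F, (x : Md d F) ≠ z • (1 : Md d F)) ∧
    ∀ (A : GL (Fin a) F) (B : GL (Fin b) F),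
      ¬ Inv d a b G (x : Md d F) (A : Matrix (Fin a) (Fin a) F) (B : Matrix (Fin b) (Fin b) F)

/-- the involution with `-1` on the first `k` hyperbolic pairs -/
def Dk (d k : ℕ) (F : Type u) [Field F] : Md d F :=
  Matrix.diagonal fun i : SI d =>
    if Sum.elim (fun j : Fin d => (j : ℕ)) (fun j : Fin d => (j : ℕ)) i < k then (-1 : F) else 1

/-! ### The tensor subgroup -/

/-- [TC] an element of `Sp` with an `Sp`-conjugate in `T` is similar to a Kronecker product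
preserving `G`. -/
def PkgTC : Prop :=
  ∀ {F : Type u} [Field F] (d a b : ℕ) (e : SI d ≃ TI a b) (P : GL (SI d) F)
    (G : Matrix (TI a b) (TI a b) F), TS d a b e P G →
    ∀ x ∈ Cfsg.spGL d F, ∀ g ∈ Cfsg.spGL d F,
      g⁻¹ * x * g ∈ Cfsg.Geo.tensorProductSubgroup a b e P →
      ∃ (A : GL (Fin a) F) (B : GL (Fin b) F),
        Inv d a b G (x : Md d F) (A : Matrix (Fin a) (Fin a) F) (B : Matrix (Fin b) (Fin b) F)

/-- [TREP] a Kronecker product preserving `G` gives an element of `T ∩ Sp`. -/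
def PkgTRep : Prop :=
  ∀ {F : Type u} [Field F] (d a b : ℕ) (e : SI d ≃ TI a b) (P : GL (SI d) F)
    (G : Matrix (TI a b) (TI a b) F), TS d a b e P G →
    ∀ (A : GL (Fin a) F) (B : GL (Fin b) F),
      ((A : Matrix (Fin a) (Fin a) F) ⊗ₖ (B : Matrix (Fin b) (Fin b) F))ᵀ * G *
        ((A : Matrix (Fin a) (Fin a) F) ⊗ₖ (B : Matrix (Fin b) (Fin b) F)) = G →
      ∃ t ∈ Cfsg.Geo.tensorProductSubgroup a b e P, t ∈ Cfsg.spGL d F ∧
        Inv d a b G (t : Md d F) (A : Matrix (Fin a) (Fin a) F) (B : Matrix (Fin b) (Fin b) F)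

/-- [GRAMS] the Gram matrix of a non-degenerate symmetric form is symmetric and invertible. -/
def PkgGramS : Prop :=
  ∀ {F : Type u} [Field F] (n : ℕ) (f : (Fin n → F) → (Fin n → F) → F),
    Cfsg.Geo.IsSymmetricForm f →
    (Cfsg.Geo.gramMatrix f)ᵀ = Cfsg.Geo.gramMatrix f ∧ (Cfsg.Geo.gramMatrix f).det ≠ 0

/-- [GRAMA] the Gram matrix of a symplectic form is non-zero and alternating. -/
def PkgGramA : Prop :=
  ∀ {F : Type u} [Field F] (n : ℕ) (f : (Fin n → F) → (Fin n → F) → F), 1 ≤ n →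
    Cfsg.Geo.IsSymplecticForm f →
    Cfsg.Geo.gramMatrix f ≠ 0 ∧ (∀ i, Cfsg.Geo.gramMatrix f i i = 0) ∧
      ∀ i j, Cfsg.Geo.gramMatrix f j i = -Cfsg.Geo.gramMatrix f i j

/-! ### Pure matrix packages -/

/-- [R1K] the rank of a Kronecker product with an identity matrix. -/
def PkgR1K : Prop :=
  ∀ {F : Type u} [Field F] (a b : ℕ),
    (∀ N : Matrix (Fin b) (Fin b) F,
      ((1 : Matrix (Fin a) (Fin a) F) ⊗ₖ N).rank = a * N.rank) ∧
    (∀ N : Matrix (Fin a) (Fin a) F,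
      (N ⊗ₖ (1 : Matrix (Fin b) (Fin b) F)).rank = b * N.rank)

/-- [KRANK] the Kronecker rank bound from a cyclic vector of length `k + 1`. -/
def PkgKRank : Prop :=
  ∀ {F : Type u} [Field F] (a b k : ℕ) (A : Matrix (Fin a) (Fin a) F)
    (B : Matrix (Fin b) (Fin b) F) (μ : F),
    (B.det ≠ 0 → ∀ v : Fin a → F,
      LinearIndependent F (fun j : Fin (k + 1) => (A ^ (j : ℕ)) *ᵥ v) →
      k * b ≤ (A ⊗ₖ B - μ • (1 : Matrix (TI a b) (TI a b) F)).rank) ∧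
    (A.det ≠ 0 → ∀ w : Fin b → F,
      LinearIndependent F (fun j : Fin (k + 1) => (B ^ (j : ℕ)) *ᵥ w) →
      k * a ≤ (A ⊗ₖ B - μ • (1 : Matrix (TI a b) (TI a b) F)).rank)

/-- [ORBR] for `A` of prime order `r ≠ char`, the order of `q` modulo `r` divides
`rank (A - 1)`. -/
def PkgOrbR : Prop :=
  ∀ {F : Type u} [Field F] [Fintype F] (m r : ℕ), r.Prime → (r : F) ≠ 0 →
    ∀ A : Matrix (Fin m) (Fin m) F, A ^ r = 1 →
      orderOf ((Fintype.card F : ℕ) : ZMod r) ∣ (A - 1).rank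

/-- [CYC] for `A ≠ 1` of prime order `r ≠ char` there is a vector whose first `i` iterates are
linearly independent, `i` the order of `q` modulo `r`. -/
def PkgCyc : Prop :=
  ∀ {F : Type u} [Field F] [Fintype F] (m r : ℕ), r.Prime → (r : F) ≠ 0 →
    ∀ A : Matrix (Fin m) (Fin m) F, A ^ r = 1 → A ≠ 1 →
      ∃ v : Fin m → F, LinearIndependent F
        (fun j : Fin (orderOf ((Fintype.card F : ℕ) : ZMod r)) => (A ^ (j : ℕ)) *ᵥ v)

/-- [ROOT] if the order of `q` modulo `r` is not `1`, every element of `F` is an `r`-th power. -/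
def PkgRoot : Prop :=
  ∀ {F : Type u} [Field F] [Fintype F] (r : ℕ), r.Prime →
    orderOf ((Fintype.card F : ℕ) : ZMod r) ≠ 1 → ∀ α : F, ∃ α₀ : F, α₀ ^ r = α

/-- [ROOT1] a non-trivial `r`-th root of unity in `F` forces the order of `q` modulo `r` to
be `1`. -/
def PkgRoot1 : Prop :=
  ∀ {F : Type u} [Field F] [Fintype F] (r : ℕ), r.Prime → ∀ z : F, z ^ r = 1 → z ≠ 1 →
    orderOf ((Fintype.card F : ℕ) : ZMod r) = 1

/-- [ALTEVEN] a skew-symmetric matrix in characteristic `≠ 2` has even rank. -/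
def PkgAltEven : Prop :=
  ∀ {F : Type u} [Field F] (n : ℕ) (S : Matrix (Fin n) (Fin n) F), (2 : F) ≠ 0 → Sᵀ = -S →
    Even S.rank

/-- [ODDRANK] an isometry of odd order of a non-degenerate symmetric form moves a space of even
dimension. -/
def PkgOddRank : Prop :=
  ∀ {F : Type u} [Field F] (b r : ℕ), Odd r → (2 : F) ≠ 0 →
    ∀ G₂ B' : Matrix (Fin b) (Fin b) F, G₂ᵀ = G₂ → G₂.det ≠ 0 → B'ᵀ * G₂ * B' = G₂ →
      B' ^ r = 1 → Even (B' - 1).rank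

/-- [ARITH] a prime `r ∤ q` dividing `|Sp_{2d}(q)|` divides `q^(2n) - 1` with `2 n = c(i) ≤ 2 d`. -/
def PkgArith : Prop :=
  ∀ (q d r : ℕ), 2 ≤ q → r.Prime → ¬ r ∣ q → r ∣ Cfsg.Agent.Lib.Helper4.FXSP.spOrd q d →
    ∃ n, 1 ≤ n ∧ n ≤ d ∧ r ∣ q ^ (2 * n) - 1 ∧ 2 * n = cOf (orderOf (q : ZMod r))

/-! ### The rank of a Kronecker product of order `r` preserving `G₁ ⊗ G₂` -/

/-- [CASE1] `A` scalar. -/
def PkgCase1 : Prop :=
  ∀ {F : Type u} [Field F] [Fintype F] (a b r : ℕ), r.Prime → r ≠ 2 → (r : F) ≠ 0 →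
    (2 : F) ≠ 0 → 2 ≤ a → ∀ (A : GL (Fin a) F) (B : GL (Fin b) F)
    (G₁ : Matrix (Fin a) (Fin a) F) (G₂ : Matrix (Fin b) (Fin b) F), G₁ ≠ 0 → G₂ᵀ = G₂ →
    G₂.det ≠ 0 →
    ((A : Matrix (Fin a) (Fin a) F) ⊗ₖ (B : Matrix (Fin b) (Fin b) F)) ^ r = 1 →
    (A : Matrix (Fin a) (Fin a) F) ⊗ₖ (B : Matrix (Fin b) (Fin b) F) ≠ 1 →
    ((A : Matrix (Fin a) (Fin a) F) ⊗ₖ (B : Matrix (Fin b) (Fin b) F))ᵀ * (G₁ ⊗ₖ G₂) *
      ((A : Matrix (Fin a) (Fin a) F) ⊗ₖ (B : Matrix (Fin b) (Fin b) F)) = G₁ ⊗ₖ G₂ →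
    (∃ α : F, (A : Matrix (Fin a) (Fin a) F) = α • 1) →
    cOf (orderOf ((Fintype.card F : ℕ) : ZMod r)) <
      ((A : Matrix (Fin a) (Fin a) F) ⊗ₖ (B : Matrix (Fin b) (Fin b) F) - 1).rank

/-- [CASE2] `B` scalar. -/
def PkgCase2 : Prop :=
  ∀ {F : Type u} [Field F] [Fintype F] (a b r : ℕ), r.Prime → r ≠ 2 → (r : F) ≠ 0 →
    3 ≤ b → ∀ (A : GL (Fin a) F) (B : GL (Fin b) F),
    ((A : Matrix (Fin a) (Fin a) F) ⊗ₖ (B : Matrix (Fin b) (Fin b) F)) ^ r = 1 →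
    (A : Matrix (Fin a) (Fin a) F) ⊗ₖ (B : Matrix (Fin b) (Fin b) F) ≠ 1 →
    (∃ β : F, (B : Matrix (Fin b) (Fin b) F) = β • 1) →
    cOf (orderOf ((Fintype.card F : ℕ) : ZMod r)) <
      ((A : Matrix (Fin a) (Fin a) F) ⊗ₖ (B : Matrix (Fin b) (Fin b) F) - 1).rank

/-- [CASE3] neither `A` nor `B` scalar. -/
def PkgCase3 : Prop :=
  ∀ {F : Type u} [Field F] [Fintype F] (a b r : ℕ), r.Prime → r ≠ 2 → (r : F) ≠ 0 →
    Even a → 2 ≤ a → 3 ≤ b → ∀ (A : GL (Fin a) F) (B : GL (Fin b) F),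
    ((A : Matrix (Fin a) (Fin a) F) ⊗ₖ (B : Matrix (Fin b) (Fin b) F)) ^ r = 1 →
    (∀ α : F, (A : Matrix (Fin a) (Fin a) F) ≠ α • 1) →
    (∀ β : F, (B : Matrix (Fin b) (Fin b) F) ≠ β • 1) →
    cOf (orderOf ((Fintype.card F : ℕ) : ZMod r)) <
      ((A : Matrix (Fin a) (Fin a) F) ⊗ₖ (B : Matrix (Fin b) (Fin b) F) - 1).rank

/-! ### Derangements -/

/-- [BADP] `r = p`: a transvection. -/
def PkgBadP : Prop :=
  ∀ {F : Type u} [Field F] [Fintype F] (p : ℕ) [Fact p.Prime] [CharP F p] (d a b : ℕ)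
    (G : Matrix (TI a b) (TI a b) F), 2 ≤ a → 2 ≤ b → 2 * d = a * b → Bad d a b p G

/-- [BAD2] `r = 2`, `a ≥ 4`: an involution with a `2`-dimensional `(-1)`-eigenspace. -/
def PkgBad2 : Prop :=
  ∀ {F : Type u} [Field F] [Fintype F] (d a b : ℕ) (G : Matrix (TI a b) (TI a b) F),
    (2 : F) ≠ 0 → 4 ≤ a → 3 ≤ b → 2 * d = a * b → Bad d a b 2 G

/-- [BADR] `r` odd, `r ≠ p`, `r ∣ |Sp_{2d}(q)|`. -/
def PkgBadR : Prop :=
  ∀ {F : Type u} [Field F] [Fintype F] (d a b r : ℕ), r.Prime → r ≠ 2 → (r : F) ≠ 0 →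
    (2 : F) ≠ 0 → Even a → 2 ≤ a → 3 ≤ b → 2 * d = a * b →
    r ∣ Nat.card ↥(Cfsg.spGL d F) →
    ∀ (G₁ : Matrix (Fin a) (Fin a) F) (G₂ : Matrix (Fin b) (Fin b) F), G₁ ≠ 0 → G₂ᵀ = G₂ →
      G₂.det ≠ 0 → Bad d a b r (G₁ ⊗ₖ G₂)

/-! ### The backward direction (`a = 2`) -/

/-- [ZSQ] a scalar square of a symplectic matrix is `±1`. -/
def PkgZSq : Prop :=
  ∀ {F : Type u} [Field F] (d : ℕ), 1 ≤ d → ∀ x ∈ Cfsg.spGL d F, ∀ z : F,
    (x : Md d F) * (x : Md d F) = z • (1 : Md d F) → z = 1 ∨ z = -1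

/-- [SYMB] a subspace on which the form is non-degenerate has a symplectic basis. -/
def PkgSymB : Prop :=
  ∀ {F : Type u} [Field F] (d : ℕ) (W : Submodule F (SI d → F)),
    (∀ w ∈ W, (∀ u ∈ W, Cfsg.sympForm d F w u = 0) → w = 0) →
    ∃ (m : ℕ) (v u : Fin m → (SI d → F)), (∀ j, v j ∈ W) ∧ (∀ j, u j ∈ W) ∧
      Module.finrank F W = 2 * m ∧
      (∀ j l, Cfsg.sympForm d F (v j) (v l) = 0) ∧ (∀ j l, Cfsg.sympForm d F (u j) (u l) = 0) ∧
      ∀ j l, Cfsg.sympForm d F (u j) (v l) = if j = l then 1 else 0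

/-- [INVNF] the normal form of an involution of `Sp`. -/
def PkgInvNF : Prop :=
  ∀ {F : Type u} [Field F], (2 : F) ≠ 0 → ∀ (d : ℕ) (x : GL (SI d) F), x ∈ Cfsg.spGL d F →
    (x : Md d F) * (x : Md d F) = 1 →
    ∃ k : ℕ, k ≤ d ∧ 2 * k = ((x : Md d F) - 1).rank ∧
      ∃ g ∈ Cfsg.spGL d F, (x : Md d F) * (g : Md d F) = (g : Md d F) * Dk d k F

/-- [CXNF] the normal form of an element of `Sp` with square `-1`. -/
def PkgCxNF : Prop :=
  ∀ {F : Type u} [Field F] [Fintype F], (2 : F) ≠ 0 → ∀ (d : ℕ) (x : GL (SI d) F),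
    x ∈ Cfsg.spGL d F → (x : Md d F) * (x : Md d F) = -1 →
    ∃ g ∈ Cfsg.spGL d F, (x : Md d F) * (g : Md d F) = (g : Md d F) * Matrix.J (Fin d) F

/-- [OINV] orthogonal involutions with a `(-1)`-eigenspace of any dimension. -/
def PkgOInv : Prop :=
  ∀ {F : Type u} [Field F], (2 : F) ≠ 0 → ∀ (b : ℕ) (G₂ : Matrix (Fin b) (Fin b) F),
    G₂ᵀ = G₂ → G₂.det ≠ 0 → ∀ k, k ≤ b →
    ∃ B : GL (Fin b) F,
      (B : Matrix (Fin b) (Fin b) F)ᵀ * G₂ * (B : Matrix (Fin b) (Fin b) F) = G₂ ∧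
      (B : Matrix (Fin b) (Fin b) F) * (B : Matrix (Fin b) (Fin b) F) = 1 ∧
      ((B : Matrix (Fin b) (Fin b) F) - 1).rank = k

/-- [BACKP] involutions of `Sp` are conjugate into `T` (`a = 2`). -/
def PkgBackP : Prop :=
  ∀ {F : Type u} [Field F], (2 : F) ≠ 0 → ∀ (d b : ℕ) (e : SI d ≃ TI 2 b) (P : GL (SI d) F)
    (G₁ : Matrix (Fin 2) (Fin 2) F) (G₂ : Matrix (Fin b) (Fin b) F), G₂ᵀ = G₂ → G₂.det ≠ 0 →
    d = b → TS d 2 b e P (G₁ ⊗ₖ G₂) →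
    ∀ x ∈ Cfsg.spGL d F, (x : Md d F) * (x : Md d F) = 1 →
      ∃ g ∈ Cfsg.spGL d F, g⁻¹ * x * g ∈ Cfsg.Geo.tensorProductSubgroup 2 b e P

/-- [BACKM] elements of `Sp` with square `-1` are conjugate into `T` (`a = 2`). -/
def PkgBackM : Prop :=
  ∀ {F : Type u} [Field F] [Fintype F], (2 : F) ≠ 0 → ∀ (d b : ℕ) (e : SI d ≃ TI 2 b)
    (P : GL (SI d) F) (G₁ : Matrix (Fin 2) (Fin 2) F) (G₂ : Matrix (Fin b) (Fin b) F),
    (∀ i, G₁ i i = 0) → (∀ i j, G₁ j i = -G₁ i j) → TS d 2 b e P (G₁ ⊗ₖ G₂) →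
    ∀ x ∈ Cfsg.spGL d F, (x : Md d F) * (x : Md d F) = -1 →
      ∃ g ∈ Cfsg.spGL d F, g⁻¹ * x * g ∈ Cfsg.Geo.tensorProductSubgroup 2 b e P

end Cfsg.Agent.Lib.Helper8.SPTEN
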